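-- Team project OPAR (S5989), packages [OM2A] and [OM2B] (helper92), by counting: an isometry
-- `x` with `x * x = -1` acts on a nonzero level set `{Q = a}` with all cycles of length 4, so
-- `4 ∣ |{Q = a}|` and the sign of the induced permutation is `(-1)^(|{Q = a}| / 4)`; the sign
-- is a character of the isometry group, trivial on the commutator subgroup `Ω`.
import Cfsg.Agent.Lib.Helper70.OPar.Defs
import Cfsg.Agent.Lib.Helper14.Spinor
import Cfsg.Agent.Lib.Helper73.PG.Level
import Cfsg.Agent.Lib.Helper45.OrthZeros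

set_option autoImplicit false

namespace Cfsg.Agent.Lib.Helper92.OPar

open Cfsg Cfsg.Agent.Lib.Helper70.OPar Cfsg.Agent.Lib.Helper14
open Matrix

universe u

/-- A permutation whose square has no fixed point and whose fourth power is trivial: all cycles
have length 4. -/
theorem sign_of_sq_fpf {α : Type*} [DecidableEq α] [Fintype α] (σ : Equiv.Perm α)
    (h4 : ∀ a, σ (σ (σ (σ a))) = a) (h2 : ∀ a, σ (σ a) ≠ a) :
    4 ∣ Fintype.card α ∧ Equiv.Perm.sign σ = (-1) ^ (Fintype.card α / 4) := by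
  have hpow : σ ^ 4 = 1 := by
    ext a
    simp [pow_succ, h4]
  have hmem : ∀ n ∈ σ.cycleType, n = 4 := by
    intro n hn
    have hdvd : n ∣ 4 :=
      (Equiv.Perm.dvd_of_mem_cycleType hn).trans (orderOf_dvd_of_pow_eq_one hpow)
    have h2le := Equiv.Perm.two_le_of_mem_cycleType hn
    have hn2 : n ≠ 2 := by
      rintro rfl
      obtain ⟨c, τ, hστ, hdisj, -, hcard⟩ := Equiv.Perm.mem_cycleType_iff.mp hn
      obtain ⟨u, v, huv, hswap⟩ := Equiv.Perm.card_support_eq_two.mp hcard
      have hτu : τ u = u := by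
        rcases hdisj u with h | h
        · rw [hswap, Equiv.swap_apply_left] at h
          exact absurd h.symm huv
        · exact h
      have hτv : τ v = v := by
        rcases hdisj v with h | h
        · rw [hswap, Equiv.swap_apply_right] at h
          exact absurd h huv
        · exact h
      apply h2 u
      rw [hστ]
      simp [Equiv.Perm.mul_apply, hτu, hτv, hswap]
    have hle : n ≤ 4 := Nat.le_of_dvd (by norm_num) hdvd
    interval_cases n
    · exact absurd rfl hn2
    · exact absurd hdvd (by norm_num)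
    · rfl
  have hsupp : σ.support = Finset.univ := by
    ext a
    simp only [Equiv.Perm.mem_support, Finset.mem_univ, iff_true]
    intro ha
    exact h2 a (by rw [ha, ha])
  have hrep : σ.cycleType = Multiset.replicate (Multiset.card σ.cycleType) 4 :=
    Multiset.eq_replicate.mpr ⟨rfl, hmem⟩
  have hsum : σ.cycleType.sum = Fintype.card α := by
    rw [Equiv.Perm.sum_cycleType, hsupp, Finset.card_univ]
  have hsum' : Fintype.card α = 4 * Multiset.card σ.cycleType := by
    rw [← hsum]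
    conv_lhs => rw [hrep]
    rw [Multiset.sum_replicate, smul_eq_mul, mul_comm]
  refine ⟨⟨_, hsum'⟩, ?_⟩
  rw [Equiv.Perm.sign_of_cycleType, hsum, hsum', Nat.mul_div_cancel_left _ (by norm_num : 0 < 4),
    pow_add, pow_mul]
  norm_num

section generic

variable {ι : Type} [Fintype ι] [DecidableEq ι] {F : Type u} [Field F] [Fintype F]

/-- Generic reduction: an isometry `g` with `g * g = -1` acts on a nonzero level set with all
cycles of length 4. -/
theorem level_of_sq_neg_one (Q : (ι → F) → F) (h2 : (2 : F) ≠ 0) (hQ0 : Q 0 = 0) (a : F)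
    (ha : a ≠ 0) (g : ↥(Cfsg.isometryGroup F Q))
    (hg : ((g : Matrix.GeneralLinearGroup ι F) : Matrix ι ι F) *
      ((g : Matrix.GeneralLinearGroup ι F) : Matrix ι ι F) = -1) :
    4 ∣ Nat.card {v : ι → F // Q v = a} ∧
      signChar Q a g = (-1) ^ (Nat.card {v : ι → F // Q v = a} / 4) := by
  classical
  let _ : Fintype {v : ι → F // Q v = a} := Fintype.ofFinite _
  have hσσ : ∀ v : {v : ι → F // Q v = a},
      ((levelPerm Q a g (levelPerm Q a g v) : {v : ι → F // Q v = a}) : ι → F) = - v.1 := by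
    intro v
    rw [levelPerm_apply, levelPerm_apply, Matrix.mulVec_mulVec, hg, Matrix.neg_mulVec,
      Matrix.one_mulVec]
  have h4 : ∀ v, levelPerm Q a g (levelPerm Q a g (levelPerm Q a g (levelPerm Q a g v))) = v := by
    intro v
    apply Subtype.ext
    rw [hσσ, hσσ, neg_neg]
  have hfp : ∀ v, levelPerm Q a g (levelPerm Q a g v) ≠ v := by
    intro v hv
    have h1 := congrArg Subtype.val hv
    rw [hσσ] at h1
    have hv0 : v.1 = 0 := by
      have h3 : (2 : F) • v.1 = 0 := by
        rw [two_smul]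
        nth_rewrite 1 [← h1]
        simp
      exact (smul_eq_zero.mp h3).resolve_left h2
    have h5 := v.2
    rw [hv0, hQ0] at h5
    exact ha h5.symm
  have key := sign_of_sq_fpf (levelPerm Q a g) h4 hfp
  rw [signChar_eq_sign, Nat.card_eq_fintype_card]
  exact key

/-- An element of `Ω(Q)` with square `-1` forces `|{Q = a}| / 4` to be even. -/
theorem even_level_of_omega (Q : (ι → F) → F) (h2 : (2 : F) ≠ 0) (hQ0 : Q 0 = 0) (a : F)
    (ha : a ≠ 0) (x : Matrix.GeneralLinearGroup ι F) (hx : x ∈ Cfsg.Geo.omegaGL Q)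
    (hxx : (x : Matrix ι ι F) * (x : Matrix ι ι F) = -1) :
    Even (Nat.card {v : ι → F // Q v = a} / 4) := by
  obtain ⟨g, hg, rfl⟩ := hx
  have hker : signChar Q a g = 1 := Abelianization.commutator_subset_ker (signChar Q a) hg
  obtain ⟨-, hs⟩ := level_of_sq_neg_one Q h2 hQ0 a ha g hxx
  rw [hker] at hs
  by_contra hodd
  rw [Nat.not_even_iff_odd] at hodd
  rw [hodd.neg_one_pow] at hs
  exact absurd hs (by decide)

/-- An isometry matrix with square `-1` forces `4 ∣ |{Q = a}|`. -/
theorem four_dvd_level_of_isometry (Q : (ι → F) → F) (h2 : (2 : F) ≠ 0) (hQ0 : Q 0 = 0) (a : F)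
    (ha : a ≠ 0) (x : Matrix ι ι F) (hx : ∀ v, Q (x *ᵥ v) = Q v) (hxx : x * x = -1) :
    4 ∣ Nat.card {v : ι → F // Q v = a} := by
  let g : Matrix.GeneralLinearGroup ι F :=
    ⟨x, -x, by rw [mul_neg, hxx, neg_neg], by rw [neg_mul, hxx, neg_neg]⟩
  have hg : g ∈ Cfsg.isometryGroup F Q := (mem_isometryGroup_iff Q g).mpr hx
  exact (level_of_sq_neg_one Q h2 hQ0 a ha ⟨g, hg⟩ hxx).1

end generic

section plus

variable {F : Type u} [Field F] [Fintype F]

/-- The number of vectors of norm 1 for the hyperbolic form. -/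
theorem card_level_one_plus (k : ℕ) :
    Nat.card {v : Fin (k + 1) ⊕ Fin (k + 1) → F // Cfsg.quadFormPlus (k + 1) F v = 1} =
      Fintype.card F ^ k * (Fintype.card F ^ (k + 1) - 1) := by
  classical
  have hs := Cfsg.Agent.Lib.Helper73.PG.sum_lev (k + 1) F
  rw [← Finset.add_sum_erase Finset.univ _ (Finset.mem_univ (0 : F))] at hs
  have h1 : ∑ a ∈ Finset.univ.erase (0 : F), Cfsg.Agent.Lib.Helper73.PG.lev (k + 1) F a
      = (Fintype.card F - 1) * Cfsg.Agent.Lib.Helper73.PG.lev (k + 1) F 1 := by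
    rw [Finset.sum_congr rfl (fun a ha => Cfsg.Agent.Lib.Helper73.PG.lev_scale (k + 1) F a
      (Finset.ne_of_mem_erase ha)), Finset.sum_const, Finset.card_erase_of_mem (Finset.mem_univ _),
      Finset.card_univ, smul_eq_mul]
  have h0 : Cfsg.Agent.Lib.Helper73.PG.lev (k + 1) F 0 =
      Fintype.card F ^ (2 * (k + 1) - 1) + Fintype.card F ^ (k + 1) - Fintype.card F ^ (k + 1 - 1) :=
    Cfsg.Agent.Lib.Helper45.card_zeros_plus rfl (k + 1) (by omega)
  rw [h1, h0] at hs
  have hq : 2 ≤ Fintype.card F := Fintype.one_lt_card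
  obtain ⟨t, ht⟩ : ∃ t, Fintype.card F = t + 1 := ⟨Fintype.card F - 1, by omega⟩
  have ht0 : 0 < t := by omega
  show Cfsg.Agent.Lib.Helper73.PG.lev (k + 1) F 1 = _
  generalize Cfsg.Agent.Lib.Helper73.PG.lev (k + 1) F 1 = L at hs ⊢
  rw [ht] at hs ⊢
  generalize hA : (t + 1) ^ k = A at hs ⊢
  have e1 : (t + 1) ^ (2 * (k + 1) - 1) = A * A * (t + 1) := by
    rw [← hA, show 2 * (k + 1) - 1 = k + k + 1 by omega, pow_succ, pow_add]
  have e2 : (t + 1) ^ (k + 1) = A * t + A := by
    rw [← hA, pow_succ]; ring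
  have e3 : (t + 1) ^ (k + 1 - 1) = A := by
    rw [← hA]; congr 1
  have e4 : (t + 1) ^ (2 * (k + 1)) = A * A * (t + 1) * t + A * A * (t + 1) := by
    rw [← hA, show 2 * (k + 1) = k + k + 1 + 1 by omega, pow_succ, pow_succ, pow_add]; ring
  rw [e1, e2, e3, e4, Nat.add_sub_cancel, show A * A * (t + 1) + (A * t + A) - A
    = A * A * (t + 1) + A * t by omega] at hs
  have hA1 : 1 ≤ A := by
    rw [← hA]; exact Nat.one_le_pow _ _ (by omega)
  have h5 : t * (L + A) = t * (A * A * (t + 1)) := by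
    have : t * (L + A) = t * L + A * t := by ring
    rw [this]
    have : t * (A * A * (t + 1)) = A * A * (t + 1) * t := by ring
    rw [this]
    omega
  have h6 : L + A = A * A * (t + 1) := Nat.eq_of_mul_eq_mul_left ht0 h5
  have h7 : A * (A * t + A - 1) = A * A * (t + 1) - A := by
    rw [Nat.mul_sub, mul_one]
    congr 1
    ring
  rw [e2, h7]
  omega

omit [Fintype F] in
theorem quadFormPlus_zero (d : ℕ) : Cfsg.quadFormPlus d F 0 = 0 := by
  simp [Cfsg.quadFormPlus]

/-- Package [OM2A]. -/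
theorem pkgOm2A : PkgOm2A.{u} := by
  intro F _ _ hq d hd x hx hxx
  obtain ⟨j, rfl⟩ := hd
  have h2 : (2 : F) ≠ 0 :=
    Cfsg.Agent.Lib.Helper73.PG.two_ne_zero_of_odd F (Nat.odd_iff.mpr (by omega))
  have hdvd := four_dvd_level_of_isometry (Cfsg.quadFormPlus (2 * j + 1) F) h2
    (quadFormPlus_zero _) 1 one_ne_zero x hx hxx
  rw [card_level_one_plus] at hdvd
  have hsq : Fintype.card F ^ (2 * j) % 4 = 1 := by
    rw [pow_mul, Nat.pow_mod]
    have : Fintype.card F ^ 2 % 4 = 1 := by
      rw [Nat.pow_mod, hq]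
    rw [this, Nat.one_pow]
  have hodd : Fintype.card F ^ (2 * j + 1) % 4 = 3 := by
    rw [pow_succ, Nat.mul_mod, hsq, hq]
  have hm : (Fintype.card F ^ (2 * j + 1) - 1) % 4 = 2 := by omega
  have hL : Fintype.card F ^ (2 * j) * (Fintype.card F ^ (2 * j + 1) - 1) % 4 = 2 := by
    rw [Nat.mul_mod, hsq, hm]
  omega

/-- Package [OM2B]. -/
theorem pkgOm2B : PkgOm2B.{u} := by
  intro F _ _ hq d hd x hx hxx
  obtain ⟨j, rfl⟩ := hd
  have h2 : (2 : F) ≠ 0 :=
    Cfsg.Agent.Lib.Helper73.PG.two_ne_zero_of_odd F (Nat.odd_iff.mpr (by omega))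
  have hev := even_level_of_omega (Cfsg.quadFormPlus (2 * j + 1) F) h2
    (quadFormPlus_zero _) 1 one_ne_zero x hx hxx
  rw [card_level_one_plus] at hev
  have hsq : Fintype.card F ^ (2 * j) % 8 = 1 := by
    rw [pow_mul, Nat.pow_mod]
    have : Fintype.card F ^ 2 % 8 = 1 := by
      rw [Nat.pow_mod, hq]
    rw [this, Nat.one_pow]
  have hodd : Fintype.card F ^ (2 * j + 1) % 8 = 5 := by
    rw [pow_succ, Nat.mul_mod, hsq, hq]
  have hm : (Fintype.card F ^ (2 * j + 1) - 1) % 8 = 4 := by omega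
  have hL : Fintype.card F ^ (2 * j) * (Fintype.card F ^ (2 * j + 1) - 1) % 8 = 4 := by
    rw [Nat.mul_mod, hsq, hm]
  obtain ⟨e, he⟩ := hev
  omega

end plus

end Cfsg.Agent.Lib.Helper92.OPar
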