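-- Team projects OPAR / OPARM (S5989 / S5991), helper92: the minus-type analogue of Om2.lean.
-- Number of vectors of norm 1 for `quadFormMinus m F a b` (anisotropic binary part) and the
-- exclusion of isometries / elements of Ω with square `-1`, by counting.
import Cfsg.Agent.Lib.Helper92.OPar.Om2

set_option autoImplicit false

namespace Cfsg.Agent.Lib.Helper92.OPar

open Cfsg Cfsg.Agent.Lib.Helper14
open Matrix

universe u

section minus

variable {F : Type u} [Field F]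

/-- The similitude of the minus form given by "multiplication by `s + t ω`" on the binary part
and by scaling half of the hyperbolic coordinates. -/
def simMap (m : ℕ) (a b s t : F) (v : (Fin m ⊕ Fin m) ⊕ Fin 2 → F) :
    (Fin m ⊕ Fin m) ⊕ Fin 2 → F :=
  Sum.elim (Sum.elim (fun i => (s ^ 2 + a * s * t + b * t ^ 2) * v (.inl (.inl i)))
      (fun i => v (.inl (.inr i))))
    ![s * v (.inr 0) - b * t * v (.inr 1), t * v (.inr 0) + (s + a * t) * v (.inr 1)]

theorem simMap_quad (m : ℕ) (a b s t : F) (v : (Fin m ⊕ Fin m) ⊕ Fin 2 → F) :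
    Cfsg.quadFormMinus m F a b (simMap m a b s t v) =
      (s ^ 2 + a * s * t + b * t ^ 2) * Cfsg.quadFormMinus m F a b v := by
  unfold Cfsg.quadFormMinus simMap
  simp only [Sum.elim_inl, Sum.elim_inr, Matrix.cons_val_zero, Matrix.cons_val_one, mul_assoc]
  rw [← Finset.mul_sum]
  ring

theorem simMap_inv_aux (m : ℕ) (a b s t ν : F) (hν0 : ν ≠ 0)
    (hνe : ν = s ^ 2 + a * s * t + b * t ^ 2) (v : (Fin m ⊕ Fin m) ⊕ Fin 2 → F) :
    simMap m a b (ν⁻¹ * (s + a * t)) (-(ν⁻¹ * t)) (simMap m a b s t v) = v := by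
  funext k
  rcases k with (i | i) | j
  · simp only [simMap, Sum.elim_inl]
    rw [← hνe]
    field_simp
    rw [hνe]
    ring
  · simp [simMap]
  · fin_cases j
    · simp only [simMap, Sum.elim_inr, Fin.zero_eta, Matrix.cons_val_zero, Matrix.cons_val_one]
      field_simp
      rw [hνe]
      ring
    · simp only [simMap, Sum.elim_inr, Fin.mk_one, Matrix.cons_val_zero, Matrix.cons_val_one]
      field_simp
      rw [hνe]
      ring

theorem simMap_inv_aux' (m : ℕ) (a b s t ν : F) (hν0 : ν ≠ 0)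
    (hνe : ν = s ^ 2 + a * s * t + b * t ^ 2) (v : (Fin m ⊕ Fin m) ⊕ Fin 2 → F) :
    simMap m a b s t (simMap m a b (ν⁻¹ * (s + a * t)) (-(ν⁻¹ * t)) v) = v := by
  funext k
  rcases k with (i | i) | j
  · simp only [simMap, Sum.elim_inl]
    rw [← hνe]
    field_simp
    rw [hνe]
    ring
  · simp [simMap]
  · fin_cases j
    · simp only [simMap, Sum.elim_inr, Fin.zero_eta, Matrix.cons_val_zero, Matrix.cons_val_one]
      field_simp
      rw [hνe]
      ring
    · simp only [simMap, Sum.elim_inr, Fin.mk_one, Matrix.cons_val_zero, Matrix.cons_val_one]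
      field_simp
      rw [hνe]
      ring

theorem simMap_inv (m : ℕ) (a b s t : F) (hν : s ^ 2 + a * s * t + b * t ^ 2 ≠ 0)
    (v : (Fin m ⊕ Fin m) ⊕ Fin 2 → F) :
    simMap m a b ((s ^ 2 + a * s * t + b * t ^ 2)⁻¹ * (s + a * t))
      (-((s ^ 2 + a * s * t + b * t ^ 2)⁻¹ * t)) (simMap m a b s t v) = v :=
  simMap_inv_aux m a b s t _ hν rfl v

theorem simMap_inv' (m : ℕ) (a b s t : F) (hν : s ^ 2 + a * s * t + b * t ^ 2 ≠ 0)
    (v : (Fin m ⊕ Fin m) ⊕ Fin 2 → F) :
    simMap m a b s t (simMap m a b ((s ^ 2 + a * s * t + b * t ^ 2)⁻¹ * (s + a * t))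
      (-((s ^ 2 + a * s * t + b * t ^ 2)⁻¹ * t)) v) = v :=
  simMap_inv_aux' m a b s t _ hν rfl v

theorem simMap_mult_inv_aux (a b s t ν : F) (hν0 : ν ≠ 0)
    (hνe : ν = s ^ 2 + a * s * t + b * t ^ 2) :
    (ν⁻¹ * (s + a * t)) ^ 2 + a * (ν⁻¹ * (s + a * t)) * (-(ν⁻¹ * t)) + b * (-(ν⁻¹ * t)) ^ 2
      = ν⁻¹ := by
  field_simp
  rw [hνe]
  ring

theorem simMap_mult_inv (a b s t : F) (hν : s ^ 2 + a * s * t + b * t ^ 2 ≠ 0) :
    ((s ^ 2 + a * s * t + b * t ^ 2)⁻¹ * (s + a * t)) ^ 2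
      + a * ((s ^ 2 + a * s * t + b * t ^ 2)⁻¹ * (s + a * t))
        * (-((s ^ 2 + a * s * t + b * t ^ 2)⁻¹ * t))
      + b * (-((s ^ 2 + a * s * t + b * t ^ 2)⁻¹ * t)) ^ 2
      = (s ^ 2 + a * s * t + b * t ^ 2)⁻¹ :=
  simMap_mult_inv_aux a b s t _ hν rfl

/-- Level sets of the minus form at `1` and at a represented value `ν ≠ 0` are equinumerous. -/
theorem lev_minus_scale (m : ℕ) (a b s t : F) (hν : s ^ 2 + a * s * t + b * t ^ 2 ≠ 0) :
    Nat.card {v : (Fin m ⊕ Fin m) ⊕ Fin 2 → F //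
        Cfsg.quadFormMinus m F a b v = s ^ 2 + a * s * t + b * t ^ 2} =
      Nat.card {v : (Fin m ⊕ Fin m) ⊕ Fin 2 → F // Cfsg.quadFormMinus m F a b v = 1} := by
  apply Nat.card_congr
  refine
    { toFun := fun v => ⟨simMap m a b ((s ^ 2 + a * s * t + b * t ^ 2)⁻¹ * (s + a * t))
        (-((s ^ 2 + a * s * t + b * t ^ 2)⁻¹ * t)) v.1, ?_⟩
      invFun := fun v => ⟨simMap m a b s t v.1, ?_⟩
      left_inv := ?_
      right_inv := ?_ }
  · rw [simMap_quad, simMap_mult_inv a b s t hν, v.2, inv_mul_cancel₀ hν]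
  · rw [simMap_quad, v.2, mul_one]
  · intro v
    apply Subtype.ext
    exact simMap_inv' m a b s t hν v.1
  · intro v
    apply Subtype.ext
    exact simMap_inv m a b s t hν v.1

variable [Fintype F]

/-- The anisotropic binary form represents every element (finite field, odd order). -/
theorem binary_univ (h2 : (2 : F) ≠ 0) (a b : F)
    (hab : ∀ x y : F, x ^ 2 + a * x * y + b * y ^ 2 = 0 → x = 0 ∧ y = 0) (c : F) :
    ∃ s t : F, s ^ 2 + a * s * t + b * t ^ 2 = c := by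
  have h4 : (4 : F) ≠ 0 := by
    have : (4 : F) = 2 * 2 := by norm_num
    rw [this]
    exact mul_ne_zero h2 h2
  have he : b - a ^ 2 / 4 ≠ 0 := by
    intro he
    have h1 := (hab (-a / 2) 1 (by
      field_simp
      field_simp at he
      linear_combination he)).2
    exact one_ne_zero h1
  have hF : ringChar F ≠ 2 := by
    intro h
    apply h2
    have := CharP.cast_eq_zero F (ringChar F)
    rw [h] at this
    exact_mod_cast this
  have hodd : Fintype.card F % 2 = 1 := FiniteField.odd_card_of_char_ne_two hF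
  obtain ⟨x, y, h⟩ := FiniteField.exists_root_sum_quadratic (f := Polynomial.X ^ 2)
    (g := Polynomial.C (b - a ^ 2 / 4) * Polynomial.X ^ 2 - Polynomial.C c)
    (Polynomial.degree_X_pow 2)
    (by
      rw [Polynomial.degree_sub_C (by rw [Polynomial.degree_C_mul_X_pow 2 he]; decide),
        Polynomial.degree_C_mul_X_pow 2 he]
      rfl) hodd
  refine ⟨x - a * y / 2, y, ?_⟩
  simp only [Polynomial.eval_pow, Polynomial.eval_X, Polynomial.eval_sub, Polynomial.eval_C,
    Polynomial.eval_mul] at h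
  field_simp
  field_simp at h
  linear_combination h

omit [Fintype F] in
theorem quadFormMinus_zero (m : ℕ) (a b : F) : Cfsg.quadFormMinus m F a b 0 = 0 := by
  simp [Cfsg.quadFormMinus]

/-- The number of vectors of norm 1 for the minus-type form. -/
theorem card_level_one_minus (h2 : (2 : F) ≠ 0) (m : ℕ) (a b : F)
    (hab : ∀ x y : F, x ^ 2 + a * x * y + b * y ^ 2 = 0 → x = 0 ∧ y = 0) :
    Nat.card {v : (Fin m ⊕ Fin m) ⊕ Fin 2 → F // Cfsg.quadFormMinus m F a b v = 1} =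
      Fintype.card F ^ m * (Fintype.card F ^ (m + 1) + 1) := by
  classical
  set lev : F → ℕ := fun c =>
    Nat.card {v : (Fin m ⊕ Fin m) ⊕ Fin 2 → F // Cfsg.quadFormMinus m F a b v = c} with hlev
  have hscale : ∀ c : F, c ≠ 0 → lev c = lev 1 := by
    intro c hc
    obtain ⟨s, t, hst⟩ := binary_univ h2 a b hab c
    have := lev_minus_scale m a b s t (by rw [hst]; exact hc)
    rw [hst] at this
    exact this
  have hs : ∑ c : F, lev c = Fintype.card F ^ (m + m + 2) := by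
    have e : (Σ c : F, {v : (Fin m ⊕ Fin m) ⊕ Fin 2 → F // Cfsg.quadFormMinus m F a b v = c}) ≃
        ((Fin m ⊕ Fin m) ⊕ Fin 2 → F) := Equiv.sigmaFiberEquiv (Cfsg.quadFormMinus m F a b)
    have h1 := Nat.card_congr e
    rw [Nat.card_sigma] at h1
    rw [hlev]
    simp only
    rw [h1, Nat.card_eq_fintype_card, Fintype.card_fun, Fintype.card_sum, Fintype.card_sum,
      Fintype.card_fin, Fintype.card_fin]
  rw [← Finset.add_sum_erase Finset.univ _ (Finset.mem_univ (0 : F))] at hs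
  have h1 : ∑ c ∈ Finset.univ.erase (0 : F), lev c = (Fintype.card F - 1) * lev 1 := by
    rw [Finset.sum_congr rfl (fun c hc => hscale c (Finset.ne_of_mem_erase hc)), Finset.sum_const,
      Finset.card_erase_of_mem (Finset.mem_univ _), Finset.card_univ, smul_eq_mul]
  have h0 : lev 0 = Fintype.card F ^ (2 * (m + 1) - 1) + Fintype.card F ^ (m + 1 - 1)
      - Fintype.card F ^ (m + 1) :=
    Cfsg.Agent.Lib.Helper45.card_zeros_minus rfl (m + 1) (by omega) a b hab
  rw [h1, h0] at hs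
  have hq : 2 ≤ Fintype.card F := Fintype.one_lt_card
  obtain ⟨t, ht⟩ : ∃ t, Fintype.card F = t + 1 := ⟨Fintype.card F - 1, by omega⟩
  have ht0 : 0 < t := by omega
  show lev 1 = _
  generalize lev 1 = L at hs ⊢
  rw [ht] at hs ⊢
  generalize hA : (t + 1) ^ m = A at hs ⊢
  have e1 : (t + 1) ^ (2 * (m + 1) - 1) = A * A * (t + 1) := by
    rw [← hA, show 2 * (m + 1) - 1 = m + m + 1 by omega, pow_succ, pow_add]
  have e2 : (t + 1) ^ (m + 1) = A * t + A := by
    rw [← hA, pow_succ]; ring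
  have e3 : (t + 1) ^ (m + 1 - 1) = A := by
    rw [← hA]; congr 1
  have e4 : (t + 1) ^ (m + m + 2) = A * A * (t + 1) * t + A * A * (t + 1) := by
    rw [← hA, show m + m + 2 = m + m + 1 + 1 by omega, pow_succ, pow_succ, pow_add]; ring
  rw [e1, e2, e3, e4, Nat.add_sub_cancel] at hs
  have hA1 : 1 ≤ A := by
    rw [← hA]; exact Nat.one_le_pow _ _ (by omega)
  have hXA : A * t + A ≤ A * A * (t + 1) := by
    have h5 : A * (t + 1) ≤ A * A * (t + 1) := Nat.mul_le_mul_right _ (Nat.le_mul_self A)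
    have h6 : A * (t + 1) = A * t + A := by ring
    omega
  have h5 : t * L = t * (A * A * (t + 1) + A) := by
    have e5 : t * (A * A * (t + 1) + A) = A * A * (t + 1) * t + A * t := by ring
    rw [e5]
    omega
  have h6 : L = A * A * (t + 1) + A := Nat.eq_of_mul_eq_mul_left ht0 h5
  rw [e2, h6]
  ring

/-- No isometry of the minus form has square `-1` when `m + 1` is even or `q ≡ 1 (mod 4)`. -/
theorem no_isometry_sq_neg_one_minus (hq : Odd (Fintype.card F)) (m : ℕ) (a b : F)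
    (hab : ∀ x y : F, x ^ 2 + a * x * y + b * y ^ 2 = 0 → x = 0 ∧ y = 0)
    (h : Even (m + 1) ∨ Fintype.card F % 4 = 1)
    (x : Matrix ((Fin m ⊕ Fin m) ⊕ Fin 2) ((Fin m ⊕ Fin m) ⊕ Fin 2) F)
    (hx : ∀ v, Cfsg.quadFormMinus m F a b (x *ᵥ v) = Cfsg.quadFormMinus m F a b v) :
    x * x ≠ -1 := by
  intro hxx
  have h2 : (2 : F) ≠ 0 := Cfsg.Agent.Lib.Helper73.PG.two_ne_zero_of_odd F hq
  have hdvd := four_dvd_level_of_isometry (Cfsg.quadFormMinus m F a b) h2
    (quadFormMinus_zero m a b) 1 one_ne_zero x hx hxx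
  rw [card_level_one_minus h2 m a b hab] at hdvd
  have hq2 : Fintype.card F % 2 = 1 := Nat.odd_iff.mp hq
  have hA : Fintype.card F ^ m % 2 = 1 := by
    rw [Nat.pow_mod, hq2, Nat.one_pow]
  have hB : Fintype.card F ^ (m + 1) % 4 = 1 := by
    rcases h with ⟨j, hj⟩ | h
    · rw [hj, ← two_mul, pow_mul, Nat.pow_mod]
      have h3 : Fintype.card F ^ 2 % 4 = 1 := by
        rw [Nat.pow_mod]
        have h4 : Fintype.card F % 4 = 1 ∨ Fintype.card F % 4 = 3 := by omega
        rcases h4 with h4 | h4 <;> rw [h4]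
      rw [h3, Nat.one_pow]
    · rw [Nat.pow_mod, h, Nat.one_pow]
  have hA4 : Fintype.card F ^ m % 4 = 1 ∨ Fintype.card F ^ m % 4 = 3 := by omega
  have hC : (Fintype.card F ^ (m + 1) + 1) % 4 = 2 := by omega
  have hL : Fintype.card F ^ m * (Fintype.card F ^ (m + 1) + 1) % 4 = 2 := by
    rw [Nat.mul_mod, hC]
    rcases hA4 with h4 | h4 <;> rw [h4]
  omega

/-- No element of `Ω⁻` has square `-1` when `m + 1` is odd and `q ≡ 3 (mod 8)`. -/
theorem no_omega_sq_neg_one_minus (hq : Fintype.card F % 8 = 3) (m : ℕ) (a b : F)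
    (hab : ∀ x y : F, x ^ 2 + a * x * y + b * y ^ 2 = 0 → x = 0 ∧ y = 0)
    (hodd : Odd (m + 1))
    (x : Matrix.GeneralLinearGroup ((Fin m ⊕ Fin m) ⊕ Fin 2) F)
    (hx : x ∈ Cfsg.Geo.omegaGL (Cfsg.quadFormMinus m F a b)) :
    (x : Matrix ((Fin m ⊕ Fin m) ⊕ Fin 2) ((Fin m ⊕ Fin m) ⊕ Fin 2) F) *
      (x : Matrix ((Fin m ⊕ Fin m) ⊕ Fin 2) ((Fin m ⊕ Fin m) ⊕ Fin 2) F) ≠ -1 := by
  intro hxx
  have h2 : (2 : F) ≠ 0 :=
    Cfsg.Agent.Lib.Helper73.PG.two_ne_zero_of_odd F (Nat.odd_iff.mpr (by omega))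
  have hev := even_level_of_omega (Cfsg.quadFormMinus m F a b) h2
    (quadFormMinus_zero m a b) 1 one_ne_zero x hx hxx
  rw [card_level_one_minus h2 m a b hab] at hev
  obtain ⟨j, hj⟩ := hodd
  have hm : m = 2 * j := by omega
  subst hm
  have hsq : Fintype.card F ^ (2 * j) % 8 = 1 := by
    rw [pow_mul, Nat.pow_mod]
    have : Fintype.card F ^ 2 % 8 = 1 := by
      rw [Nat.pow_mod, hq]
    rw [this, Nat.one_pow]
  have hodd' : Fintype.card F ^ (2 * j + 1) % 8 = 3 := by
    rw [pow_succ, Nat.mul_mod, hsq, hq]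
  have hC : (Fintype.card F ^ (2 * j + 1) + 1) % 8 = 4 := by omega
  have hL : Fintype.card F ^ (2 * j) * (Fintype.card F ^ (2 * j + 1) + 1) % 8 = 4 := by
    rw [Nat.mul_mod, hsq, hC]
  obtain ⟨e, he⟩ := hev
  omega

end minus

end Cfsg.Agent.Lib.Helper92.OPar
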